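import Cfsg.Agent.H6.Fi22R.N
import Cfsg.Agent.H6.Fi22R.M
import Cfsg.Agent.H6.Fi22R.C.Main
import Cfsg.Agent.H6.Fi23R.M
import Cfsg.Agent.H6.Fi22I.Main
import Cfsg.Agent.H6.U62.Iso
import Cfsg.Agent.H3.Small

set_option autoImplicit false
set_option maxRecDepth 100000
set_option Elab.async false

namespace Cfsg.H6.Fi22R

open Fi22

universe v

theorem liftU : Lift.{v} U62.ev 148080050112590643456 U62.R := fun _ _ _ h h' => U62.lift h h'

def s8 : List (List ℕ) := U62.sg.take 9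

def u1 : List ℕ := rp 9 [1,2,3,4,5,6,7]

def u4 : List ℕ := rp 5 [1,2,3,4,6,8]

def R1 : List (List ℕ) := U62.R.erase u4

def R2 : List (List ℕ) := R1.erase u1

def R3 : List (List ℕ) := R2.erase [7,8,7,8,7,8]

theorem RU : ∀ r ∈ U62.R, r ∈ R1 ∨ r = u4 := by decide +kernel

theorem RU1 : ∀ r ∈ R1, r ∈ R2 ∨ r = u1 := by decide +kernel

theorem RU2 : ∀ r ∈ R2, r ∈ R3 ∨ r = [7,8,7,8,7,8] := by decide +kernel

theorem hev8 : Good (evS ev s8) 148080050112590643456 := main.2.2.good_evS (by decide +kernel)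

theorem hR8 : Rels (evS ev s8) R1 := main.2.2.rels_evS (by decide +kernel)

theorem z8 : evL (evS ev s8) u4 = evL ev [1] := by
  rw [evL_subst]; exact T.eq (by decide +kernel)

theorem c8 : ∀ l, Commute (evS ev s8 l) (evL ev [1]) := T.commS (by decide +kernel)

theorem w8 (a : Spor.Fi22) (ha : Commute a (evL ev [1])) :
    ∃ w, evL (evS ev s8) w = a ∨ evL (evS ev s8) w * evL ev [1] = a :=
  (T.words prim (σ := s8) (V := [u4, [1], [2], [3], [4], [5], [6], [7], u4 ++ 8 :: rp 3 [1,2,3,6]])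
    (A := [1,2,3,4,5,6,7,8]) (by decide +kernel) a ha).imp fun _ h => Or.inl h.2

theorem m8 : ¬ Commute (evS ev s8 1) (evS ev s8 2) :=
  T.not_comm (u := [3]) (w := [4]) (by decide +kernel)

theorem ccl (x : Spor.Fi22) (hx : Commute x (evL ev [1])) (hx2 : x * x = 1) :
    ∃ w ∈ U62I.Reps, ∃ k, Commute k (evL ev [1]) ∧
      (k⁻¹ * evL (evS ev s8) w * k = x ∨ k⁻¹ * (evL (evS ev s8) w * evL ev [1]) * k = x) :=
  have := U62.simple
  cover_classes hev8 U62.hev c8 w8 T.sq
    (fun _ => transfer2 liftU hev8 U62.hev T.sq (one_mul 1) (fun _ => rfl) c8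
      (fun _ => Commute.one_right _) (fun r hr => (RU r hr).imp
        (fun h => ⟨hR8 r h, U62.hR r hr⟩) fun h => ⟨by rw [h]; exact z8, U62.hR r hr⟩) m8)
    (fun _ => mem_two liftU hev8 T.sq c8 fun r hr => (RU r hr).imp (hR8 r)
      fun h => by rw [h]; exact z8)
    U62.hX (fun _ => U62I.classes) x hx hx2

theorem hkx : ∃ k, Commute k (evL ev [1]) ∧
    k⁻¹ * evL ev ([3] ++ [5] ++ [8]) * k = evL ev ([3] ++ [5] ++ [8]) * evL ev [1] :=
  ⟨evL ev kx, by rw [← evL_append]; exact T.cj (by decide +kernel)⟩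

theorem lc : LC3 (evL ev [1]) (evL ev [3]) (evL ev ([3] ++ [5] ++ [8])) :=
  T.lc3 ccl hkx (Rt := Rt) (by decide +kernel)

theorem ff : FF (evL ev [1]) (evL ev [3]) (evL ev [5]) :=
  T.ff (e := e0) (f := f0) (t := t0) r3
    (T.cls (fun _ => Fi22I.classes) (CW := [[]]) (by decide +kernel))
    (T.triple r3 trig rfl rfl (by decide +kernel))
    (not_isConj_of_nfix hφ hX n1 n2 (by decide +kernel)) (r1 := q1) (r2 := q2) (ts := ts)
    (by decide +kernel)

theorem not3 {G : Type v} [Group G] {d : G} {F : Spor.Fi22 → G} (hF : Emb0 (evL ev [1]) d F)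
    (hn : ∀ y, y * y ≠ d) : ¬ IsConj d (F (evL ev ([3] ++ [5] ++ [8]))) := by
  have h1 := lc
  have h2 := hkx
  have cm : ∀ {u w : List ℕ}, eqB img 10 42649378395939397566720 bs (u ++ w) (w ++ u) = true →
      Commute (evL ev u) (evL ev w) := fun h => by
    have := T.eq h
    rwa [evL_append, evL_append] at this
  have h3 := (T.cj (k := ky) (u := [3] ++ [5] ++ [8])
    (w := invW 42649378395939397566720 ky ++ [3,5,8] ++ ky) (by decide +kernel))
  have h4 : Commute (evL ev (invW 42649378395939397566720 ky ++ [3,5,8] ++ ky))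
    (evL ev ([3] ++ [5] ++ [8])) := cm (by decide +kernel)
  have h5 := hφ.mov (bs := bs)
    (w := invW 42649378395939397566720 ky ++ [3,5,8] ++ ky ++ ([3] ++ [5] ++ [8])) (by decide +kernel)
  have h6 := T.root (Rt := Rt)
    (w := invW 42649378395939397566720 ky ++ [3,5,8] ++ ky ++ ([3] ++ [5] ++ [8])) (by decide +kernel)
  rw [evL_append, ← h3.2] at h5 h6
  rw [← h3.2] at h4
  rw [evL_append, evL_append] at h1 h2 h4 h5 h6 ⊢
  exact hF.not_third h1 ff hn ⟨_, T.cj (k := kf) (by decide +kernel)⟩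
    ⟨_, T.cj (k := kg) (by decide +kernel)⟩ (cm (by decide +kernel)) (cm (by decide +kernel))
    (cm (by decide +kernel)) h2 ⟨_, h3.1, h4, h5, h6⟩
    (by rw [← evL_append]; exact T.root (Rt := Rt) (by decide +kernel))
    (by rw [← evL_append]; exact T.root (Rt := Rt) (by decide +kernel))
    (by rw [← evL_append]; exact T.root (Rt := Rt) (by decide +kernel))
    (by rw [← evL_append]; exact hφ.mov (bs := bs) (by decide +kernel))
    (by rw [← evL_append]; exact hφ.mov (bs := bs) (by decide +kernel))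
    (by rw [← evL_append]; exact hφ.mov (bs := bs) (by decide +kernel))

def s9 : List (List ℕ) := [[], [1], [2], [3], [4], [5], [6], [7], [8], [9]]

def s12 : List (List ℕ) := [[], [1], [2], [3], [4], [5], [6], [7], [8], [9], [10], [11], [12]]

theorem of_emb {G : Type v} [Group G] [Finite G] {d : G} {F : Spor.Fi22 → G}
    (hE : Emb (evL ev [1]) d (evL ev [1]) d F) (hn : ∀ y, y * y ≠ d) :
    Nonempty (G ≃* Spor.Fi22) := by
  have := simple
  have := finite
  obtain ⟨X1, a1, L1⟩ := (hE.locs T (Sg := Sg) (A := A0) (by decide +kernel)).extendA T hE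
    (R0 := []) (by simp [Rels]) ahS arig aext
  obtain ⟨X2, a2, L2⟩ := L1.extendA T hE (L1.bridge main.2.2 (s := bw) (by decide +kernel))
    bhS brig bext
  obtain ⟨Φ, hΦ⟩ := lift (L2.good main.2.2 (s := s9) (by decide +kernel))
    (L2.cover T prim (s := s12) (main.2.2.good_evS (by decide +kernel))
      (L2.good main.2.2 (by decide +kernel)) (main.2.2.rels_evS (by decide +kernel))
      (L2.relsS main.2.2 (by decide +kernel)) (fun _ h h' => C.cover h h')
      (by rw [gen_evS, eq_top_iff, ← hX]; exact gen_mono _ (by decide +kernel))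
      (A := [1,3,4,5,6,7,8,9,10]) (by decide +kernel))
  have k : ∀ l ∈ [1,3,4,5,6,7,8,9,10], l ≠ 99 ∧ l ≠ 2 := by decide
  exact L2.finish T ff hE.toEmb0 hn (A := [1,3,4,5,6,7,8,9,10])
    (fun l hl => by rw [a2 l (k l hl).1, a1 l (k l hl).2]) Φ hΦ
    (T.words prim (V := [[1], [3], [4], [5], [6], [7], [8], [9], 1 :: 10 :: rp 3 [3,4,5,8]])
      (by decide +kernel)) (by decide +kernel)

section
variable {C : Type v} [Group C] {π : C →* U62.Grp} {d : C}

theorem cyc (D : DC π d) (hd : d ≠ 1) {xs : ℕ → C} (g1 : Good xs 148080050112590643456)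
    (g2 : ∀ l, π (xs l) = U62.ev l) (g3 : Rels xs R3) : evL xs [7,8,7,8,7,8] = 1 := by
  refine (D.ker _ (by rw [map_evL, funext g2]; exact U62.hR _ (by decide +kernel))).resolve_right
    fun e => hd ?_
  have c := D.comm_of_words (nsq D) U62.hev U62.main.2.2 g2 (l := 8)
    (g := [4,8] ++ [3,4] ++ [2,3] ++ [6,2] ++ [7,6] ++ [8,7]) (gs := gs) (iw := iw)
    (by decide +kernel)
  have s := g1.mul_self (m := 9) (by decide +kernel)
  have b : ∀ i j, [i, j, i, j, i, j] ∈ R3 → (xs i * xs j)⁻¹ * xs j * (xs i * xs j) = xs i ∧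
      (xs j * xs i)⁻¹ * xs i * (xs j * xs i) = xs j := fun i j h =>
    braid (s i) (s j) (by simpa [evL] using g3 _ h)
  have p : ∀ i j, evL xs [i, j] = xs i * xs j := fun i j => by rw [evL_cons, evL_singleton]
  have a := cj_of_commute c.symm
  simp only [evL_append, p] at a
  rw [show ∀ a b c d e f x : C, (a * b * c * d * e * f)⁻¹ * x * (a * b * c * d * e * f) =
    f⁻¹ * (e⁻¹ * (d⁻¹ * (c⁻¹ * (b⁻¹ * (a⁻¹ * x * a) * b) * c) * d) * e) * f from
      fun a b c d e f x => by group, (b 4 8 (by decide +kernel)).1, (b 3 4 (by decide +kernel)).1,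
    (b 2 3 (by decide +kernel)).1, (b 2 6 (by decide +kernel)).2, (b 6 7 (by decide +kernel)).2,
    mul_inv_rev, inv_eq_of_mul_eq_one_right (s 7), inv_eq_of_mul_eq_one_right (s 8)] at a
  rw [← e, ← s 8]
  conv_rhs => enter [1]; rw [← a]
  simp [evL, mul_assoc]

theorem tr23 (D : DC π d) {xs : ℕ → C} (g1 : Good xs 148080050112590643456) (g3 : Rels xs R2)
    {δ ε : C} (h1 : evL xs u1 = δ) (h4 : evL xs u4 = ε) (hδ : δ = 1 ∨ δ = d) (hε : ε = 1 ∨ ε = d)
    (w : List ℕ) (hw : fixB Fi23.img 11 Fi23.bs (subst s8 w) = true) : evL xs w = 1 := by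
  have := U62.simple
  have k : ∀ x : C, x = 1 ∨ x = d → x * x = 1 ∧ ∀ y, Commute y x := by
    rintro _ (rfl | rfl)
    · exact ⟨one_mul 1, Commute.one_right⟩
    · exact ⟨D.sq, D.cen⟩
  have a1 := (Fi23R.T.std (e := Fi23R.e0) (by decide +kernel)).2
  have r8 : Rels (evS Fi23.ev s8) R2 := Fi23.main.2.2.rels_evS (by decide +kernel)
  have c1 : ∀ l, Commute (evS Fi23.ev s8 l) (evL Fi23.ev [1]) := fun l => by
    by_cases hl : l < 9
    · have : ∀ l < 9, (inR 11 (s8.getD l []) && Nat.beq (trF Fi23.img (s8.getD l []) 1) 1) = true := by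
        decide +kernel
      have := this l hl
      rw [Bool.and_eq_true, Nat.beq_eq] at this
      exact (Fi23R.T.commW a1 this.1).mpr this.2
    · rw [evS, List.getD_eq_default _ _ (by change 9 ≤ l; omega)]
      exact Commute.one_left _
  refine transfer4 liftU (ev := evS Fi23.ev s8) (Fi23.main.2.2.good_evS (by decide +kernel)) g1
    Fi23R.T.sq (Fi23R.T.sq_of a1.isConj) (k δ hδ).1 (k ε hε).1 Fi23R.r3.te.symm
    (Fi23.hφ.mov (bs := Fi23.bs) (by decide +kernel))
    (Fi23.hφ.mov (bs := Fi23.bs) (by decide +kernel))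
    (by rw [← evL_append]; exact Fi23.hφ.mov (bs := Fi23.bs) (by decide +kernel))
    (Fi23R.T.commS (by decide +kernel)) c1 (k δ hδ).2 (k ε hε).2 (fun r hr => ?_) (i := 1) (j := 2)
    (Fi23R.T.not_comm (u := [3]) (w := [4]) (by decide +kernel))
    (by rw [evL_subst]; exact Fi23.main.2.2 _ hw)
  rcases RU r hr with h | rfl
  · rcases RU1 r h with h | rfl
    · exact Or.inl ⟨r8 r h, g3 r h⟩
    · exact Or.inr (Or.inl ⟨by rw [evL_subst]; exact Fi23R.T.eq (by decide +kernel), h1⟩)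
  · exact Or.inr (Or.inr ⟨by rw [evL_subst]; exact Fi23R.T.eq (by decide +kernel), h4⟩)

theorem newW {W : List (List ℕ)} (h1 : Good (evS U62.ev W) 148080050112590643456)
    (h2 : Rels (evS U62.ev W) U62.R) (h3 : ¬ Commute (evS U62.ev W 1) (evS U62.ev W 2)) :
    (∀ q, ∃ w, evL (evS U62.ev W) w = q) ∧ ¬ Commute (evS U62.ev W 1) (evS U62.ev W 2) := by
  have := U62.simple
  have := U62.finite
  obtain ⟨ψ, hψ⟩ := U62.lift h1 h2
  exact ⟨words_of_simple U62.hev U62.hX ψ hψ (i := 1) fun e => h3 (e ▸ Commute.one_left _), h3⟩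

theorem ncU {u w : List ℕ} (h : movB U62.img 6336 9 U62.bs
    (u ++ w ++ invW 148080050112590643456 (w ++ u)) = true) :
    ¬ Commute (evL U62.ev u) (evL U62.ev w) := fun c => U62.hφ.mov h (by
  rw [evL_append, evL_invW U62.hev, evL_append, evL_append, c.eq, mul_inv_cancel])

theorem pat (D : DC π d) (hd : d ≠ 1) (hq : commutator C = ⊤) : ∃ xs : ℕ → C,
    Good xs 148080050112590643456 ∧ Rels xs R1 ∧ evL xs u4 = d ∧
      (∀ q, ∃ w, evL (fun l => π (xs l)) w = q) ∧ ¬ Commute (π (xs 1)) (π (xs 2)) := by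
  obtain ⟨xs, g1, g2, g3⟩ := D.tuple (nsq D) U62.hev U62.hR (m := 9) (R1 := R3)
    (T := [(4, 8), (6, 7), (2, 6), (4, 5), (3, 4), (2, 3), (1, 2)])
    (r0 := rp 9 [1,2,3,4,5,7,8]) (by decide +kernel)
  have g4 : Rels xs R2 := fun r hr => (RU2 r hr).elim (g3 r) fun e => e ▸ cyc D hd g1 g2 g3
  have k : ∀ r ∈ U62.R, evL xs r = 1 ∨ evL xs r = d := fun r hr =>
    D.ker _ (by rw [map_evL, funext g2]; exact U62.hR _ hr)
  have pS : ∀ W, (fun l => π (evS xs W l)) = evS U62.ev W := fun W => funext fun l => by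
    rw [evS, map_evL, funext g2]; rfl
  rcases k u1 (by decide +kernel) with h1 | h1 <;> rcases k u4 (by decide +kernel) with h4 | h4
  · obtain ⟨ψ, hψ⟩ := U62.lift g1 fun r hr => (RU r hr).elim
      (fun h => (RU1 r h).elim (g4 r) fun e => e ▸ h1) fun e => e ▸ h4
    exact (D.not_split hq hd U62.hev U62.hX ψ fun l => by rw [hψ, g2]).elim
  · refine ⟨xs, g1, fun r hr => (RU1 r hr).elim (g4 r) fun e => e ▸ h1, h4, fun q => ?_, ?_⟩
    · rw [funext g2]; exact exists_word U62.hev (U62.hX ▸ Subgroup.mem_top q)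
    · rw [g2, g2, ← evL_singleton U62.ev 1, ← evL_singleton U62.ev 2]
      exact ncU (by decide +kernel)
  · obtain ⟨a, b, c⟩ := retuple D.sq (tr23 D g1 g4 h1 h4 (Or.inr rfl) (Or.inl rfl)) (W := WA)
      (R := R1) (z := u4) (inv := 148080050112590643456) (Z1 := [[], u4]) (Zd := [u1, u1 ++ u4])
      (by simp [Rels, h4, evL_nil]) (by simp [evL_append, h1, h4]) (by decide +kernel)
    obtain ⟨e, f⟩ := newW (W := WA) (U62.main.2.2.good_evS (by decide +kernel))
      (U62.main.2.2.rels_evS (by decide +kernel)) (ncU (by decide +kernel))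
    exact ⟨_, a, b, c, by rwa [pS], by rwa [congrFun (pS WA), congrFun (pS WA)]⟩
  · obtain ⟨a, b, c⟩ := retuple D.sq (tr23 D g1 g4 h1 h4 (Or.inr rfl) (Or.inr rfl)) (W := WB)
      (R := R1) (z := u4) (inv := 148080050112590643456) (Z1 := [[], u1 ++ u4]) (Zd := [u1, u4])
      (by simp [Rels, evL_append, h1, h4, evL_nil, D.sq]) (by simp [h1, h4]) (by decide +kernel)
    obtain ⟨e, f⟩ := newW (W := WB) (U62.main.2.2.good_evS (by decide +kernel))
      (U62.main.2.2.rels_evS (by decide +kernel)) (ncU (by decide +kernel))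
    exact ⟨_, a, b, c, by rwa [pS], by rwa [congrFun (pS WB), congrFun (pS WB)]⟩

end

theorem result {G : Type v} [Group G] [Finite G] (d : G) (hd : orderOf d = 2)
    (hq : commutator (Subgroup.centralizer ({d} : Set G)) = ⊤)
    [((Subgroup.zpowers d).subgroupOf (Subgroup.centralizer ({d} : Set G))).Normal]
    (K : Type) [Field K] [Fintype K] (hK : Fintype.card K = 4)
    (e : (Subgroup.centralizer ({d} : Set G)) ⧸
      (Subgroup.zpowers d).subgroupOf (Subgroup.centralizer ({d} : Set G)) ≃* Cfsg.PSU 6 K 2)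
    (hnwc : ∃ g : G, g * d * g⁻¹ ∈ Subgroup.centralizer ({d} : Set G) ∧ g * d * g⁻¹ ≠ d) :
    Nonempty (G ≃* Spor.Fi22) := by
  have := U62.simple
  obtain ⟨e1⟩ := U62.iso_psu
  obtain ⟨h, π, D, hd1⟩ := exists_dc hd (e.trans ((H3.centerQuotCongr (H3.suCongr
    (FiniteField.ringEquivOfCardEq (hK.trans F4.card.symm)) 6 2)).trans e1.symm))
  obtain ⟨xs, g1, g3, hz, g4, g5⟩ := pat D (fun e => hd1 (congrArg Subtype.val e)) hq
  obtain ⟨d2, ns, hs⟩ := D.coe (nsq D) hd1
  obtain ⟨c2, s2⟩ := hs xs g4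
  have hz' : evL (fun l => (xs l : G)) u4 = d :=
    (map_evL (Subgroup.subtype _) xs u4).symm.trans (congrArg Subtype.val hz)
  obtain ⟨F, hF, _⟩ := emb_pattern liftU hev8 (g1.map (Subgroup.subtype _)) z8 hz' T.sq d2 ff.ne hd1
    c8 c2 w8 s2 (fun r hr => (RU r hr).imp
      (fun h => ⟨hR8 r h, g3.map (Subgroup.subtype _) r h⟩) fun h => by rw [h]; exact ⟨z8, hz'⟩)
    m8 fun c => g5 (Commute.map (Subtype.ext c : Commute (xs 1) (xs 2)) π)
  obtain ⟨g, hg1, hg2⟩ := hnwc
  exact of_emb (hF.emb3 lc ff.te (T.comm0 (by decide +kernel)) ff.ce d2 ns r3.hp (not3 hF ns)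
    (isConj_iff.mpr ⟨g, rfl⟩) (Subgroup.mem_centralizer_singleton_iff.mp hg1) hg2) ns

end Cfsg.H6.Fi22R
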